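import Cfsg.Agent.Lib.CosetCert.D.HeN.St0.Tab
import Cfsg.Agent.Lib.CosetCert.D.HeN.Rels
import Cfsg.Agent.Lib.CosetCert.D.HeN.St0.C0

namespace Cfsg.Agent.Lib.CosetCert.D.HeN.St0.Ok

open Cfsg.Agent.Lib.CosetCert Cfsg.Agent.Lib.TC.Core Cfsg.Agent.Lib.TC.Enc Cfsg.Agent.Lib.TC.Pres Cfsg.Agent.Lib.TC.Perm Cfsg.Agent.Lib.TC.Main

set_option maxRecDepth 100000

open Cfsg.Agent.Lib.CosetCert.D.HeN.St0.Tab Cfsg.Agent.Lib.CosetCert.D.HeN.Tbl Cfsg.Agent.Lib.TC.Chain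

/-- The letters of the stage. -/
def ls : List ℕ := [0,1,2,3,4,5]

/-- The letters of the next stage. -/
def ls' : List ℕ := [0,1,2,3]

/-- The inverse letters. -/
def inv' (c : ℕ) : ℕ := [0,1,2,3,5,4].getD c 0

theorem allC0 : cert.chkRange 0 259 = true := Cfsg.Agent.Lib.CosetCert.D.HeN.St0.C0.ok
theorem allF0 : cert.chkFinal 0 259 = true := Cfsg.Agent.Lib.CosetCert.D.HeN.St0.C0.fin

theorem h0 : cert.eLvl (cert.par (cert.find cert.MAX cert.D 0)) = cert.MAX := by decide +kernel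

theorem hcount : cert.countRoots cert.N = 255 := by
  rw [countRoots_eq_acc]
  decide +kernel

theorem hchecked : Checked cert where
  hN := by decide
  hC := allC0
  hF := allF0
  h0 := h0

theorem hchk : chkStage inv0 Cfsg.Agent.Lib.CosetCert.D.HeN.Rels.rels ls ls' inv' rels subs = true := by decide +kernel

theorem h1 : chkRelRots cert inv' rels witT.get = true := by decide +kernel

theorem h2 : chkSubRots cert subs = true := by decide +kernel

theorem hls : ∀ c ∈ ls, c ∈ Cfsg.Agent.Lib.CosetCert.D.HeN.Rels.ls0 := by decide +kernel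

/-- The stage, in any group. -/
theorem stage {Δ : Type*} [Group Δ] (E : ℕ → Δ) (hinv : ∀ c ∈ Cfsg.Agent.Lib.CosetCert.D.HeN.Rels.ls0, E (inv0 c) = (E c)⁻¹)
    (hrel : ∀ l ∈ Cfsg.Agent.Lib.CosetCert.D.HeN.Rels.rels, prodA E l = 1) :
    Lt E ls' ≤ Lt E ls ∧ Nat.card (Lt E ls) = Nat.card (Lt E ls') * (Lt E ls').relIndex (Lt E ls) ∧
      (Lt E ls').relIndex (Lt E ls) ≠ 0 ∧ (Lt E ls').relIndex (Lt E ls) ≤ 255 := by
  have := stage_spec E inv0 Cfsg.Agent.Lib.CosetCert.D.HeN.Rels.rels ls ls' inv' rels subs witT.get cert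
    (fun c hc => hinv c (hls c hc)) hrel (by decide) hchk h1 h2 hchecked
  rwa [hcount] at this

end Cfsg.Agent.Lib.CosetCert.D.HeN.St0.Ok
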